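import Mathlib
import Cfsg.Prelude.Def_LocalEven
import Cfsg.Agent.ZJ.Involves
import Cfsg.Agent.ZJ.Transvection
import Cfsg.Agent.CoprimeAction.Basic
import Cfsg.Agent.CoprimeAction.Frattini
import Cfsg.Agent.PReduced.Hom

/-!
Sections isomorphic to `S₄` and automizers of `2`-subgroups with sections `S₃`.
-/

set_option autoImplicit false
set_option linter.style.haveILetI false

namespace CfsgLib.InvolveS3

open Equiv
open scoped commutatorElement

/-- The three double transpositions of four points. -/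
def dbl (i : Fin 3) : Perm (Fin 4) :=
  if i = 0 then swap 0 1 * swap 2 3 else if i = 1 then swap 0 2 * swap 1 3 else swap 0 3 * swap 1 2

/-- The induced map on the three double transpositions. -/
def actIdx (p : Perm (Fin 4)) (i : Fin 3) : Fin 3 :=
  if p * dbl i * p⁻¹ = dbl 0 then 0 else if p * dbl i * p⁻¹ = dbl 1 then 1 else 2

theorem dbl_actIdx : ∀ (p : Perm (Fin 4)) (i : Fin 3), dbl (actIdx p i) = p * dbl i * p⁻¹ := by decide

theorem dbl_injective : Function.Injective dbl := by decide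

theorem actIdx_mul (p q : Perm (Fin 4)) (i : Fin 3) : actIdx (p * q) i = actIdx p (actIdx q i) := by
  apply dbl_injective
  rw [dbl_actIdx, dbl_actIdx, dbl_actIdx]
  group

theorem actIdx_one (i : Fin 3) : actIdx 1 i = i := by
  apply dbl_injective
  rw [dbl_actIdx]
  group

/-- The homomorphism from the symmetric group on four letters to that on three letters. -/
def toThree : Perm (Fin 4) →* Perm (Fin 3) where
  toFun p := ⟨actIdx p, actIdx p⁻¹, fun i => by rw [← actIdx_mul, inv_mul_cancel, actIdx_one],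
    fun i => by rw [← actIdx_mul, mul_inv_cancel, actIdx_one]⟩
  map_one' := Equiv.ext actIdx_one
  map_mul' p q := Equiv.ext fun i => actIdx_mul p q i

theorem toThree_surjective : Function.Surjective toThree := by
  unfold Function.Surjective; decide

theorem ker_centralizer : ∀ p : Perm (Fin 4), (∀ v, toThree v = 1 → v * p = p * v) → toThree p = 1 := by
  decide

theorem card_ker : Nat.card toThree.ker = 4 := by
  rw [Nat.card_eq_fintype_card]
  decide

variable {G : Type*} [Group G] [Finite G]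

theorem exists_twoSubgroup (h : Cfsg.Involves (Perm (Fin 4)) G) : ∃ T : Subgroup G, IsPGroup 2 T ∧
    Cfsg.Involves (Perm (Fin 3)) (↥(Subgroup.normalizer (T : Set G)) ⧸
      (Subgroup.centralizer (T : Set G)).subgroupOf (Subgroup.normalizer (T : Set G))) := by
  classical
  haveI : Fact (Nat.Prime 2) := ⟨Nat.prime_two⟩
  obtain ⟨L, φ, hφ⟩ := CfsgLib.ZJ.exists_hom_of_involves h
  set ψ := toThree.comp φ with hψ
  have hψs : Function.Surjective ψ := toThree_surjective.comp hφ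
  set M := ψ.ker with hM
  let T : Sylow 2 M := default
  set φM : M →* toThree.ker := (φ.comp M.subtype).codRestrict toThree.ker (fun m => MonoidHom.mem_ker.2 (MonoidHom.mem_ker.1 m.2 : ψ m = 1)) with hφM
  have hφMs : Function.Surjective φM := by
    rintro ⟨v, hv⟩
    obtain ⟨l, rfl⟩ := hφ v
    exact ⟨⟨l, MonoidHom.mem_ker.2 (show ψ l = 1 from MonoidHom.mem_ker.1 hv)⟩, rfl⟩
  have hTtop : (T : Subgroup M).map φM = ⊤ := by
    rw [← Subgroup.index_eq_one]
    have h1 : ((T : Subgroup M).map φM).index ∣ (T : Subgroup M).index := Subgroup.index_map_dvd _ hφMs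
    have h2 : ((T : Subgroup M).map φM).index ∣ 2 ^ 2 := (Subgroup.index_dvd_card _).trans (by rw [card_ker]; norm_num)
    exact Nat.eq_one_of_dvd_coprimes (((Nat.Prime.coprime_iff_not_dvd Nat.prime_two).2 T.not_dvd_index).pow_left 2).symm h1 h2
  set TL : Subgroup L := (T : Subgroup M).map M.subtype with hTL
  have hfr : Subgroup.normalizer (TL : Set L) ⊔ M = ⊤ := Sylow.normalizer_sup_eq_top T
  set T₀ : Subgroup G := TL.map L.subtype with hT₀
  refine ⟨T₀, (T.isPGroup'.map M.subtype).map L.subtype, ?_⟩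
  set N := Subgroup.normalizer (T₀ : Set G) with hN
  set C := (Subgroup.centralizer (T₀ : Set G)).subgroupOf N with hC
  set L' : Subgroup N := L.subgroupOf N with hL'
  let ι : L' →* L :=
    { toFun := fun x => ⟨((x : N) : G), x.2⟩
      map_one' := rfl
      map_mul' := fun _ _ => rfl }
  let χ : L' →* Perm (Fin 3) := ψ.comp ι
  have hχs : Function.Surjective χ := by
    intro q
    obtain ⟨l, rfl⟩ := hψs q
    obtain ⟨n, hn, m, hm, rfl⟩ := Subgroup.mem_sup_of_normal_right.1 (show l ∈ Subgroup.normalizer (TL : Set L) ⊔ M by rw [hfr]; trivial)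
    have hnN : (n : G) ∈ N := by
      refine Subgroup.mem_normalizer_fintype fun x hx => ?_
      obtain ⟨y, hy, rfl⟩ := hx
      exact ⟨n * y * n⁻¹, (Subgroup.mem_normalizer_iff.1 hn y).1 hy, rfl⟩
    refine ⟨⟨⟨n, hnN⟩, n.2⟩, ?_⟩
    show ψ n = ψ (n * m)
    rw [map_mul, MonoidHom.mem_ker.1 hm, mul_one]
  set π := (QuotientGroup.mk' C).comp L'.subtype with hπ
  have hker : π.ker ≤ χ.ker := by
    intro x hx
    rw [hπ, MonoidHom.mem_ker, MonoidHom.comp_apply, QuotientGroup.mk'_apply, QuotientGroup.eq_one_iff] at hx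
    have hx' : ((x : N) : G) ∈ Subgroup.centralizer (T₀ : Set G) := hx
    refine MonoidHom.mem_ker.2 (ker_centralizer _ fun v hv => ?_)
    obtain ⟨t, ht, htv⟩ := hTtop.ge (Subgroup.mem_top (⟨v, hv⟩ : toThree.ker))
    have htv' : φ (t : L) = v := congrArg Subtype.val htv
    rw [← htv', ← map_mul, ← map_mul]
    exact congrArg φ (Subtype.ext (Subgroup.mem_centralizer_iff.1 hx' _ ⟨_, ⟨t, ht, rfl⟩, rfl⟩))
  exact CfsgLib.ZJ.involves_of_hom π.range (π.rangeRestrict.liftOfSurjective π.rangeRestrict_surjective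
    ⟨χ, by rwa [MonoidHom.ker_rangeRestrict]⟩) (Function.Surjective.of_comp (g := π.rangeRestrict) (by
      rw [← MonoidHom.coe_comp, MonoidHom.liftOfRightInverse_comp]
      exact hχs))

/-- An element of order three inverted by a `2`-element in a group with a section `S₃`. -/
theorem exists_inverted {Q : Type*} [Group Q] [Finite Q] (h : Cfsg.Involves (Perm (Fin 3)) Q) :
    ∃ y t : Q, orderOf y = 3 ∧ (∃ k : ℕ, t ^ 2 ^ k = 1) ∧ t * y * t⁻¹ = y⁻¹ := by
  classical
  haveI : Fact (Nat.Prime 3) := ⟨Nat.prime_three⟩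
  obtain ⟨L, φ, hφ⟩ := CfsgLib.ZJ.exists_hom_of_involves h
  set σ := (Perm.sign (α := Fin 3)).comp φ with hσ
  set M := σ.ker with hM
  let X : Sylow 3 M := default
  set XL : Subgroup L := (X : Subgroup M).map M.subtype with hXL
  have hfr : Subgroup.normalizer (XL : Set L) ⊔ M = ⊤ := Sylow.normalizer_sup_eq_top X
  obtain ⟨x, hx, hxφ⟩ : ∃ x ∈ XL, orderOf (φ x) = 3 := by
    obtain ⟨l, hl⟩ := hφ (finRotate 3)
    set φM : M →* (Perm.sign (α := Fin 3)).ker := (φ.comp M.subtype).codRestrict _ (fun m => MonoidHom.mem_ker.2 (MonoidHom.mem_ker.1 m.2 : σ m = 1)) with hφM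
    have hφMs : Function.Surjective φM := by
      rintro ⟨v, hv⟩
      obtain ⟨l, rfl⟩ := hφ v
      exact ⟨⟨l, MonoidHom.mem_ker.2 (show σ l = 1 from MonoidHom.mem_ker.1 hv)⟩, rfl⟩
    have hk3 : Nat.card (Perm.sign (α := Fin 3)).ker = 3 := by
      rw [Nat.card_eq_fintype_card]; decide
    have htop : (X : Subgroup M).map φM = ⊤ := by
      rw [← Subgroup.index_eq_one]
      have h1 : ((X : Subgroup M).map φM).index ∣ (X : Subgroup M).index := Subgroup.index_map_dvd _ hφMs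
      have h2 : ((X : Subgroup M).map φM).index ∣ 3 := (Subgroup.index_dvd_card _).trans (by rw [hk3])
      exact Nat.eq_one_of_dvd_coprimes ((Nat.Prime.coprime_iff_not_dvd Nat.prime_three).2 X.not_dvd_index).symm h1 h2
    obtain ⟨m, hm, hmv⟩ := htop.ge (Subgroup.mem_top (⟨finRotate 3, by decide⟩ : (Perm.sign (α := Fin 3)).ker))
    refine ⟨m, ⟨m, hm, rfl⟩, ?_⟩
    rw [show φ (m : L) = finRotate 3 from congrArg Subtype.val hmv]
    exact orderOf_eq_prime (by decide) (by decide)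
  obtain ⟨n, hn, hnσ⟩ : ∃ n ∈ Subgroup.normalizer (XL : Set L), σ n = -1 := by
    obtain ⟨l, hl⟩ := hφ (Equiv.swap 0 1)
    obtain ⟨n, hn, m, hm, rfl⟩ := Subgroup.mem_sup_of_normal_right.1 (show l ∈ Subgroup.normalizer (XL : Set L) ⊔ M by rw [hfr]; trivial)
    refine ⟨n, hn, ?_⟩
    have h1 : σ (n * m) = -1 := by
      show Perm.sign (φ (n * m)) = -1
      rw [hl]; exact Perm.sign_swap (by decide)
    rwa [map_mul, MonoidHom.mem_ker.1 hm, mul_one] at h1
  set o := orderOf n with ho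
  have ho0 : o ≠ 0 := (orderOf_pos n).ne'
  have hrodd : Odd (ordCompl[2] o) := Nat.odd_iff.2 (by
    have := Nat.not_dvd_ordCompl Nat.prime_two ho0
    omega)
  set n' := n ^ ordCompl[2] o with hn'
  have hn'N : n' ∈ Subgroup.normalizer (XL : Set L) := pow_mem hn _
  have hn'2 : n' ^ 2 ^ o.factorization 2 = 1 := by
    rw [hn', ← pow_mul, mul_comm, Nat.ordProj_mul_ordCompl_eq_self, ho, pow_orderOf_eq_one]
  have hn'C : n' * x * n'⁻¹ ≠ x := by
    intro e
    have h1 : Perm.sign (φ n') = -1 := by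
      show σ n' = -1
      rw [hn', map_pow, hnσ, hrodd.neg_one_pow]
    have h2 : φ n' * φ x * (φ n')⁻¹ = φ x := by rw [← map_mul, ← map_inv, ← map_mul, e]
    have key : ∀ a b : Perm (Fin 3), Perm.sign a = -1 → b ≠ 1 → b ^ 3 = 1 → a * b * a⁻¹ ≠ b := by decide
    exact key _ _ h1 (fun h => by rw [h, orderOf_one] at hxφ; omega) (orderOf_dvd_iff_pow_eq_one.1 hxφ.dvd) h2
  have hex : ∃ i : ℕ, n' ^ 2 ^ i * x * (n' ^ 2 ^ i)⁻¹ = x := ⟨o.factorization 2, by rw [hn'2]; group⟩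
  obtain ⟨i, hi⟩ : ∃ i, Nat.find hex = i + 1 := by
    refine Nat.exists_eq_succ_of_ne_zero fun h0 => hn'C ?_
    have := Nat.find_spec hex
    rwa [h0, pow_zero, pow_one] at this
  set s := n' ^ 2 ^ i with hs
  have hss : s * (s * x * s⁻¹) * s⁻¹ = x := by
    have := Nat.find_spec hex
    rw [hi, pow_succ, pow_mul, ← hs, pow_two] at this
    calc s * (s * x * s⁻¹) * s⁻¹ = s * s * x * (s * s)⁻¹ := by group
      _ = x := this
  have hsx : s * x * s⁻¹ ≠ x := Nat.find_min hex (by omega)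
  set z := x⁻¹ * (s * x * s⁻¹) with hz
  have hzX : z ∈ XL := mul_mem (inv_mem hx) ((Subgroup.mem_normalizer_iff.1 (pow_mem hn'N _) x).1 hx)
  have hz1 : z ≠ 1 := fun e => hsx (inv_mul_eq_one.1 e).symm
  have hzi : s * z * s⁻¹ = z⁻¹ := by
    calc s * z * s⁻¹ = (s * x * s⁻¹)⁻¹ * (s * (s * x * s⁻¹) * s⁻¹) := by rw [hz]; group
      _ = z⁻¹ := by rw [hss, hz, mul_inv_rev (x⁻¹), inv_inv]
  obtain ⟨k, hk⟩ := (IsPGroup.iff_orderOf.1 (X.isPGroup'.map M.subtype)) ⟨z, hzX⟩
  rw [Subgroup.orderOf_mk] at hk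
  obtain ⟨k', rfl⟩ : ∃ k', k = k' + 1 := Nat.exists_eq_succ_of_ne_zero fun h0 => by
    rw [h0, pow_zero, orderOf_eq_one_iff] at hk
    exact hz1 hk
  refine ⟨((z ^ 3 ^ k' : L) : Q), ((s : L) : Q), ?_, ⟨o.factorization 2, ?_⟩, ?_⟩
  · rw [Subgroup.orderOf_coe, orderOf_pow_of_dvd (by positivity) (by rw [hk, pow_succ]; exact dvd_mul_right _ _), hk,
      pow_succ, Nat.mul_div_cancel_left _ (by positivity)]
  · rw [← SubgroupClass.coe_pow]
    have : s ^ 2 ^ o.factorization 2 = 1 := by rw [hs, ← pow_mul, mul_comm, pow_mul, hn'2, one_pow]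
    rw [this]; rfl
  · have : s * z ^ 3 ^ k' * s⁻¹ = (z ^ 3 ^ k')⁻¹ := by rw [← conj_pow, hzi, inv_pow]
    exact congrArg Subtype.val this

/-- In an elementary abelian normal `2`-subgroup, a fixed point free `3`-action inverted by a `2`-element
gives `S₄`. -/
theorem involves_of_elementary {H : Type*} [Group H] [Finite H] (V : Subgroup H) [V.Normal]
    (hab : ∀ a ∈ V, ∀ b ∈ V, a * b = b * a) (hexp : ∀ a ∈ V, a * a = 1) {γ τ : H}
    (hγ3 : γ ^ 3 ∈ Subgroup.centralizer (V : Set H)) (hγ : γ ∉ Subgroup.centralizer (V : Set H))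
    (hτ : ∃ k : ℕ, τ ^ 2 ^ k = 1) (hτγ : τ * γ * τ⁻¹ * γ ∈ Subgroup.centralizer (V : Set H)) :
    Cfsg.Involves (Perm (Fin 4)) H := by
  classical
  haveI : Fact (Nat.Prime 2) := ⟨Nat.prime_two⟩
  have hV : V.Normal := inferInstance
  have hcj : ∀ (g : H) (a : H), a ∈ V → g * a * g⁻¹ ∈ V := fun g a ha => hV.conj_mem a ha g
  have h3 : ∀ v ∈ V, γ * (γ * (γ * v * γ⁻¹) * γ⁻¹) * γ⁻¹ = v := by
    intro v hv
    have := Subgroup.mem_centralizer_iff.1 hγ3 v hv
    calc γ * (γ * (γ * v * γ⁻¹) * γ⁻¹) * γ⁻¹ = γ ^ 3 * v * (γ ^ 3)⁻¹ := by simp only [pow_succ, pow_zero, one_mul, mul_inv_rev, mul_assoc]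
      _ = v := by rw [← this, mul_inv_cancel_right]
  have htg : ∀ v ∈ V, τ * (γ * v * γ⁻¹) * τ⁻¹ = γ⁻¹ * (τ * v * τ⁻¹) * γ := by
    intro v hv
    have hw := hcj γ⁻¹ _ (hcj τ v hv)
    rw [inv_inv] at hw
    have := Subgroup.mem_centralizer_iff.1 hτγ _ hw
    calc τ * (γ * v * γ⁻¹) * τ⁻¹
        = (τ * γ * τ⁻¹ * γ) * (γ⁻¹ * (τ * v * τ⁻¹) * γ) * (τ * γ * τ⁻¹ * γ)⁻¹ := by group
      _ = γ⁻¹ * (τ * v * τ⁻¹) * γ := by rw [← this, mul_inv_cancel_right]
  let U : Subgroup H :=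
    { carrier := {u | ∃ v ∈ V, u = γ * v * γ⁻¹ * v}
      one_mem' := ⟨1, one_mem _, by group⟩
      mul_mem' := by
        rintro _ _ ⟨a, ha, rfl⟩ ⟨b, hb, rfl⟩
        refine ⟨a * b, mul_mem ha hb, ?_⟩
        calc γ * a * γ⁻¹ * a * (γ * b * γ⁻¹ * b) = γ * a * γ⁻¹ * (a * (γ * b * γ⁻¹)) * b := by group
          _ = γ * a * γ⁻¹ * ((γ * b * γ⁻¹) * a) * b := by rw [hab a ha _ (hcj γ b hb)]
          _ = γ * (a * b) * γ⁻¹ * (a * b) := by group
      inv_mem' := by
        rintro _ ⟨a, ha, rfl⟩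
        refine ⟨a⁻¹, inv_mem ha, ?_⟩
        rw [mul_inv_rev, hab _ (inv_mem ha) _ (inv_mem (hcj γ a ha))]
        group }
  have hUV : U ≤ V := by
    rintro _ ⟨v, hv, rfl⟩
    exact mul_mem (hcj γ v hv) hv
  have hinv : ∀ a ∈ V, a⁻¹ = a := fun a ha => inv_eq_of_mul_eq_one_right (hexp a ha)
  have hfpf : ∀ u ∈ U, γ * u * γ⁻¹ = u → u = 1 := by
    rintro _ ⟨v, hv, rfl⟩ e
    have h1 : γ * (γ * v * γ⁻¹) * γ⁻¹ * (γ * v * γ⁻¹) = γ * v * γ⁻¹ * v := by rw [← e]; group
    have h2 : γ * (γ * v * γ⁻¹) * γ⁻¹ = v := by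
      rw [hab _ (hcj γ v hv) v hv] at h1
      exact mul_right_cancel h1
    have h4 : γ * v * γ⁻¹ = v := by
      have h5 := h3 v hv
      rwa [h2] at h5
    rw [h4, hexp v hv]
  have hUτ : ∀ u ∈ U, τ * u * τ⁻¹ ∈ U := by
    rintro _ ⟨v, hv, rfl⟩
    have hw := hcj τ v hv
    have hw' : γ⁻¹ * (τ * v * τ⁻¹) * γ ∈ V := by simpa using hcj γ⁻¹ _ hw
    refine ⟨γ⁻¹ * (τ * v * τ⁻¹) * γ, hw', ?_⟩
    calc τ * (γ * v * γ⁻¹ * v) * τ⁻¹ = τ * (γ * v * γ⁻¹) * τ⁻¹ * (τ * v * τ⁻¹) := by group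
      _ = γ⁻¹ * (τ * v * τ⁻¹) * γ * (τ * v * τ⁻¹) := by rw [htg v hv]
      _ = (τ * v * τ⁻¹) * (γ⁻¹ * (τ * v * τ⁻¹) * γ) := hab _ hw' _ hw
      _ = _ := by group
  have hUne : U ≠ ⊥ := by
    intro e
    refine hγ (Subgroup.mem_centralizer_iff.2 fun v hv => ?_)
    have h1 : γ * v * γ⁻¹ * v ∈ U := ⟨v, hv, rfl⟩
    rw [e, Subgroup.mem_bot, mul_eq_one_iff_eq_inv, hinv v hv, mul_inv_eq_iff_eq_mul] at h1
    exact h1.symm
  have hU2 : IsPGroup 2 U := fun u => ⟨1, Subtype.ext (by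
    rw [pow_one, pow_two]; exact hexp _ (hUV u.2))⟩
  have hτN : Subgroup.zpowers τ ≤ Subgroup.normalizer (U : Set H) :=
    Subgroup.zpowers_le.2 (Subgroup.mem_normalizer_fintype hUτ)
  have hτ2 : IsPGroup 2 (Subgroup.zpowers τ) := by
    obtain ⟨k, hk⟩ := hτ
    obtain ⟨j, -, hj⟩ := (Nat.dvd_prime_pow Nat.prime_two).1 (orderOf_dvd_of_pow_eq_one hk)
    exact IsPGroup.of_card (by rw [Nat.card_zpowers, hj])
  set S := U ⊔ Subgroup.zpowers τ with hS
  have hS2 : IsPGroup 2 S := hU2.to_sup_of_normal_left' hτ2 hτN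
  haveI : (U.subgroupOf S).Normal :=
    (Subgroup.normal_subgroupOf_iff_le_normalizer le_sup_left).2 (sup_le Subgroup.le_normalizer hτN)
  have hne : U.subgroupOf S ≠ ⊥ := by
    rw [Ne, Subgroup.subgroupOf_eq_bot, disjoint_iff, inf_eq_left.2 (le_sup_left : U ≤ S)]
    exact hUne
  obtain ⟨⟨w', hw'U, hw'c⟩, hw'1⟩ := Subgroup.ne_bot_iff_exists_ne_one.1 (CfsgLib.PReduced.inf_center_ne_bot hS2 hne)
  set w := (w' : H) with hwdef
  have hwU : w ∈ U := hw'U
  have hw1 : w ≠ 1 := fun e => hw'1 (Subtype.ext (Subtype.ext e))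
  have hwτ : τ * w * τ⁻¹ = w := by
    have := congrArg Subtype.val (Subgroup.mem_center_iff.1 hw'c ⟨τ, (le_sup_right : _ ≤ S) (Subgroup.mem_zpowers τ)⟩)
    rw [mul_inv_eq_iff_eq_mul]; exact this
  have hwV := hUV hwU
  set a := γ * w * γ⁻¹ with ha
  set b := γ * a * γ⁻¹ with hb
  have haV : a ∈ V := hcj γ w hwV
  have hbV : b ∈ V := hcj γ a haV
  have hγU : ∀ u ∈ U, γ * u * γ⁻¹ ∈ U := by
    rintro _ ⟨v, hv, rfl⟩
    exact ⟨γ * v * γ⁻¹, hcj γ v hv, by group⟩
  have hsum : w * a * b = 1 := by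
    refine hfpf _ (mul_mem (mul_mem hwU (hγU w hwU)) (hγU _ (hγU w hwU))) ?_
    calc γ * (w * a * b) * γ⁻¹ = a * b * (γ * b * γ⁻¹) := by rw [hb, ha]; group
      _ = a * b * w := by rw [hb, ha, h3 w hwV]
      _ = w * a * b := by rw [hab _ (mul_mem haV hbV) w hwV]; group
  have hbe : b = w * a := by
    rw [← inv_eq_of_mul_eq_one_right hsum, hinv _ (mul_mem hwV haV)]
  have hwa : w ≠ a := fun e => hw1 (hfpf w hwU e.symm)
  let W : Subgroup H :=
    { carrier := {1, w, a, b}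
      one_mem' := by simp
      mul_mem' := by
        have h1 := hexp w hwV
        have h2 := hexp a haV
        have h4 := hab a haV w hwV
        have h5 := hexp b hbV
        rintro x y (rfl | rfl | rfl | rfl) (rfl | rfl | rfl | rfl) <;>
          simp only [Set.mem_insert_iff, Set.mem_singleton_iff, one_mul, mul_one, true_or, or_true, h1, h2, h5]
        · exact Or.inr (Or.inr (Or.inr hbe.symm))
        · right; right; left; rw [hbe, ← mul_assoc, h1, one_mul]
        · right; right; right; rw [h4, hbe]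
        · right; left; rw [hbe, ← mul_assoc, h4, mul_assoc, h2, mul_one]
        · right; right; left; rw [hbe, mul_assoc, h4, ← mul_assoc, h1, one_mul]
        · right; left; rw [hbe, mul_assoc, h2, mul_one]
      inv_mem' := by
        rintro x (rfl | rfl | rfl | rfl) <;>
          simp [hinv w hwV, hinv a haV, hinv b hbV] }
  have hWV : W ≤ V := by rintro x (rfl | rfl | rfl | rfl) <;> first | exact one_mem _ | assumption
  have hW4 : Nat.card W = 4 := by
    show Nat.card ({1, w, a, b} : Set H) = 4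
    have ha1 : a ≠ 1 := fun e => hw1 (conj_eq_one_iff.1 e)
    have hb1 : b ≠ 1 := fun e => ha1 (conj_eq_one_iff.1 e)
    have hab' : a ≠ b := fun e => hw1 (by
      have := hsum; rwa [← e, mul_assoc, hexp a haV, mul_one] at this)
    have hwb : w ≠ b := fun e => ha1 (by
      have := hbe.symm.trans e.symm
      simpa using this)
    rw [Nat.card_coe_set_eq, Set.ncard_insert_of_notMem (by simp [hw1.symm, ha1.symm, hb1.symm]) (Set.toFinite _),
      Set.ncard_insert_of_notMem (by simp [hwa, hwb]) (Set.toFinite _),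
      Set.ncard_insert_of_notMem (by simp [hab']) (Set.toFinite _), Set.ncard_singleton]
  have hCle : Subgroup.centralizer (V : Set H) ≤ Subgroup.centralizer (W : Set H) :=
    Subgroup.centralizer_le hWV
  refine CfsgLib.ZJ.involves_S4_of_mod_centralizer W hW4 (y := γ) (t := τ) ?_ ?_ ?_ (hCle hγ3) (hCle hτγ)
  · refine Subgroup.mem_normalizer_fintype fun x hx => ?_
    rcases hx with rfl | rfl | rfl | rfl
    · exact Or.inl (by group)
    · exact Or.inr (Or.inr (Or.inl ha.symm))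
    · exact Or.inr (Or.inr (Or.inr hb.symm))
    · exact Or.inr (Or.inl (by rw [hb, ha, h3 w hwV]))
  · refine Subgroup.mem_normalizer_fintype fun x hx => ?_
    have hτa : τ * a * τ⁻¹ = b := by
      rw [ha, htg w hwV, hwτ]
      have := h3 w hwV
      nth_rewrite 1 [← this]
      rw [hb, ha]; group
    rcases hx with rfl | rfl | rfl | rfl
    · exact Or.inl (by group)
    · exact Or.inr (Or.inl hwτ)
    · exact Or.inr (Or.inr (Or.inr hτa))
    · refine Or.inr (Or.inr (Or.inl ?_))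
      calc τ * b * τ⁻¹ = (τ * w * τ⁻¹) * (τ * a * τ⁻¹) := by rw [hbe]; group
        _ = a := by rw [hwτ, hτa, hbe, ← mul_assoc, hexp w hwV, one_mul]
  · intro x hx e
    have hxe : γ * x * γ⁻¹ = x := by rw [e, mul_inv_cancel_right]
    have hxU : x ∈ U := by
      rcases hx with rfl | rfl | rfl | rfl
      · exact one_mem _
      · exact hwU
      · exact hγU w hwU
      · exact hγU _ (hγU w hwU)
    exact hfpf x hxU hxe

theorem involves_of_automizer (T : Subgroup G) (hT : IsPGroup 2 T)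
    (h : Cfsg.Involves (Perm (Fin 3)) (↥(Subgroup.normalizer (T : Set G)) ⧸
      (Subgroup.centralizer (T : Set G)).subgroupOf (Subgroup.normalizer (T : Set G)))) :
    Cfsg.Involves (Perm (Fin 4)) G := by
  classical
  haveI : Fact (Nat.Prime 2) := ⟨Nat.prime_two⟩
  set N := Subgroup.normalizer (T : Set G) with hN
  set C := (Subgroup.centralizer (T : Set G)).subgroupOf N with hC
  obtain ⟨y, t, hy, ⟨k, hk⟩, hty⟩ := exists_inverted h
  obtain ⟨g₀, hg₀⟩ := QuotientGroup.mk'_surjective C y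
  obtain ⟨t₀, ht₀⟩ := QuotientGroup.mk'_surjective C t
  set g := g₀ ^ (2 ^ (orderOf g₀).factorization 2) with hg
  set τ := t₀ ^ (ordCompl[2] (orderOf t₀)) with hτ
  have hgo : Odd (orderOf g) := by
    rw [hg, orderOf_pow_of_dvd (by positivity) (Nat.ordProj_dvd _ 2)]
    refine Nat.odd_iff.2 ?_
    have := Nat.not_dvd_ordCompl Nat.prime_two (orderOf_pos g₀).ne'
    omega
  have hy' : orderOf (QuotientGroup.mk' C g) = 3 := by
    rw [hg, map_pow, hg₀, Nat.Coprime.orderOf_pow]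
    · exact hy
    · rw [hy]; exact Nat.Coprime.pow_right _ (by decide)
  have hτ2 : τ ^ 2 ^ (orderOf t₀).factorization 2 = 1 := by
    rw [hτ, ← pow_mul, mul_comm, Nat.ordProj_mul_ordCompl_eq_self, pow_orderOf_eq_one]
  have hrodd : Odd (ordCompl[2] (orderOf t₀)) := Nat.odd_iff.2 (by
    have := Nat.not_dvd_ordCompl Nat.prime_two (orderOf_pos t₀).ne'
    omega)
  have hti : QuotientGroup.mk' C τ * QuotientGroup.mk' C g * (QuotientGroup.mk' C τ)⁻¹ = (QuotientGroup.mk' C g)⁻¹ := by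
    simp only [hg, hτ, map_pow, hg₀, ht₀]
    rw [← conj_pow, ← inv_pow y]
    congr 1
    obtain ⟨m, hm⟩ := hrodd
    have e : t * (t * y * t⁻¹) * t⁻¹ = y := by
      have e1 : t * y⁻¹ * t⁻¹ = (t * y * t⁻¹)⁻¹ := by group
      calc t * (t * y * t⁻¹) * t⁻¹ = t * y⁻¹ * t⁻¹ := by conv_lhs => rw [hty]
        _ = y := by rw [e1, hty, inv_inv]
    have h2 : ∀ j, (t ^ 2) ^ j * y * ((t ^ 2) ^ j)⁻¹ = y := by
      intro j
      induction j with
      | zero => group
      | succ j ih =>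
        calc (t ^ 2) ^ (j + 1) * y * ((t ^ 2) ^ (j + 1))⁻¹ = (t ^ 2) ^ j * (t * (t * y * t⁻¹) * t⁻¹) * ((t ^ 2) ^ j)⁻¹ := by
              rw [pow_succ]; group
          _ = (t ^ 2) ^ j * y * ((t ^ 2) ^ j)⁻¹ := by rw [e]
          _ = y := ih
    rw [hm, pow_succ', pow_mul, ← hty]
    calc t * (t ^ 2) ^ m * y * (t * (t ^ 2) ^ m)⁻¹ = t * ((t ^ 2) ^ m * y * ((t ^ 2) ^ m)⁻¹) * t⁻¹ := by group
      _ = t * y * t⁻¹ := by rw [h2 m]
  set Φ : Subgroup G := (frattini T).map T.subtype with hΦ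
  have hNΦ : N ≤ Subgroup.normalizer (Φ : Set G) := by
    intro n hn
    refine Subgroup.mem_normalizer_fintype ?_
    rintro _ ⟨x, hx, rfl⟩
    let c : T ≃* T :=
      { toFun := fun z => ⟨n * z * n⁻¹, (Subgroup.mem_normalizer_iff.1 hn z).1 z.2⟩
        invFun := fun z => ⟨n⁻¹ * z * n, by simpa using (Subgroup.mem_normalizer_iff.1 (inv_mem hn) z).1 z.2⟩
        left_inv := fun z => Subtype.ext (by group)
        right_inv := fun z => Subtype.ext (by group)
        map_mul' := fun a b => Subtype.ext (by simp only [Subgroup.coe_mul]; group) }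
    refine ⟨c x, ?_, rfl⟩
    have := Subgroup.characteristic_iff_map_eq.1 (inferInstance : (frattini T).Characteristic) c
    exact this ▸ Subgroup.mem_map_of_mem _ hx
  obtain ⟨v, hv, hvΦ⟩ : ∃ v ∈ T, (g : G) * v * (g : G)⁻¹ * v⁻¹ ∉ Φ := by
    by_contra hcon
    push Not at hcon
    have hA : (Subgroup.zpowers (g : G)) ≤ Subgroup.normalizer (Φ : Set G) :=
      Subgroup.zpowers_le.2 (hNΦ g.2)
    have key : Subgroup.zpowers (g : G) ≤ Subgroup.centralizer (T : Set G) := by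
      refine CfsgLib.CoprimeAction.le_centralizer_of_frattini ?_ ?_
      · obtain ⟨j, hj⟩ := IsPGroup.iff_card.1 (hT.to_subgroup (frattini T))
        rw [Nat.card_zpowers, Subgroup.orderOf_coe, hj]
        exact Nat.Coprime.pow_right _ (Nat.coprime_two_right.2 hgo)
      · intro a ha k hk
        -- the elements acting trivially modulo `Φ` form a subgroup
        let A : Subgroup G :=
          { carrier := {a | a ∈ N ∧ ∀ k ∈ T, a * k * a⁻¹ * k⁻¹ ∈ Φ}
            one_mem' := ⟨one_mem _, fun k _ => by simp⟩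
            mul_mem' := fun {a b} ha hb => ⟨mul_mem ha.1 hb.1, fun k hk => by
              have h1 := (Subgroup.mem_normalizer_iff.1 (hNΦ ha.1) _).1 (hb.2 k hk)
              have h2 := mul_mem h1 (ha.2 k hk)
              have e : a * b * k * (a * b)⁻¹ * k⁻¹ = a * (b * k * b⁻¹ * k⁻¹) * a⁻¹ * (a * k * a⁻¹ * k⁻¹) := by group
              rw [e]; exact h2⟩
            inv_mem' := fun {a} ha => ⟨inv_mem ha.1, fun k hk => by
              have h1 := (Subgroup.mem_normalizer_iff.1 (hNΦ (inv_mem ha.1)) _).1 (inv_mem (ha.2 k hk))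
              have e : a⁻¹ * k * a⁻¹⁻¹ * k⁻¹ = a⁻¹ * (a * k * a⁻¹ * k⁻¹)⁻¹ * a⁻¹⁻¹ := by group
              rw [e]; exact h1⟩ }
        exact ((Subgroup.zpowers_le (H := A)).2 ⟨g.2, hcon⟩ ha).2 k hk
    have : QuotientGroup.mk' C g = 1 := (QuotientGroup.eq_one_iff g).2 (key (Subgroup.mem_zpowers _))
    rw [this, orderOf_one] at hy'
    omega
  -- pass to the quotient by the Frattini subgroup
  set ΦN := Φ.subgroupOf N with hΦN
  haveI : ΦN.Normal := (Subgroup.normal_subgroupOf_iff_le_normalizer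
    ((Subgroup.map_subtype_le _).trans Subgroup.le_normalizer)).2 hNΦ
  set q := QuotientGroup.mk' ΦN with hq
  set TN := T.subgroupOf N with hTN
  haveI : TN.Normal := Subgroup.normal_subgroupOf_iff_le_normalizer Subgroup.le_normalizer |>.2 le_rfl
  haveI : (TN.map q).Normal := Subgroup.Normal.map inferInstance q (QuotientGroup.mk'_surjective _)
  have hCV : ∀ c ∈ C, q c ∈ Subgroup.centralizer ((TN.map q : Subgroup _) : Set _) := by
    intro c hc
    refine Subgroup.mem_centralizer_iff.2 ?_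
    rintro _ ⟨x, hx, rfl⟩
    rw [← map_mul, ← map_mul]
    exact congrArg q (Subtype.ext (Subgroup.mem_centralizer_iff.1 hc _ hx))
  refine CfsgLib.ZJ.involves_subgroup N (CfsgLib.ZJ.involves_quotient ΦN
    (involves_of_elementary (TN.map q) ?_ ?_ (γ := q g) (τ := q τ) ?_ ?_ ?_ ?_))
  · rintro _ ⟨a, ha, rfl⟩ _ ⟨b, hb, rfl⟩
    rw [← map_mul, ← map_mul, QuotientGroup.mk'_apply, QuotientGroup.mk'_apply, QuotientGroup.eq]
    have h1 : ((a * b)⁻¹ * (b * a) : N) = ⁅b⁻¹, a⁻¹⁆ := by rw [commutatorElement_def]; group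
    show (((a * b)⁻¹ * (b * a) : N) : G) ∈ Φ
    refine ⟨⁅(⟨(b : G), hb⟩ : T)⁻¹, (⟨(a : G), ha⟩ : T)⁻¹⁆, ?_, ?_⟩
    · exact CfsgLib.CoprimeAction.commutator_le_frattini' hT
        (Subgroup.commutator_mem_commutator (Subgroup.mem_top _) (Subgroup.mem_top _))
    · rw [h1]; rfl
  · rintro _ ⟨a, ha, rfl⟩
    rw [← map_mul, QuotientGroup.mk'_apply, QuotientGroup.eq_one_iff]
    refine ⟨(⟨(a : G), ha⟩ : T) ^ 2, CfsgLib.CoprimeAction.pow_mem_frattini hT _, ?_⟩
    rw [pow_two]; rfl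
  · rw [← map_pow]
    refine hCV _ ?_
    rw [← QuotientGroup.eq_one_iff]
    have : QuotientGroup.mk' C g ^ 3 = 1 := hy' ▸ pow_orderOf_eq_one _
    rw [← map_pow] at this
    exact this
  · intro hc
    refine hvΦ ?_
    have hvN : v ∈ N := Subgroup.le_normalizer hv
    have h1 := Subgroup.mem_centralizer_iff.1 hc (q ⟨v, hvN⟩) ⟨⟨v, hvN⟩, hv, rfl⟩
    have h2 : q (g * ⟨v, hvN⟩ * g⁻¹ * ⟨v, hvN⟩⁻¹) = 1 := by
      rw [map_mul, map_mul, map_mul, map_inv, map_inv, ← h1]; group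
    exact (QuotientGroup.eq_one_iff (N := ΦN) _).1 h2
  · exact ⟨_, by rw [← map_pow, hτ2, map_one]⟩
  · rw [← map_mul, ← map_inv, ← map_mul, ← map_mul]
    refine hCV _ ?_
    rw [← QuotientGroup.eq_one_iff]
    show QuotientGroup.mk' C (τ * g * τ⁻¹ * g) = 1
    rw [map_mul, map_mul, map_mul, map_inv, hti, inv_mul_cancel]

end CfsgLib.InvolveS3
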